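import Cfsg.Agent.Blocks.PairAlg.Saturated
import Cfsg.Agent.Blocks.NilBlock.Local
import Cfsg.Agent.Blocks.InertialIndex
import Cfsg.Agent.Blocks.Transport
import Cfsg.Agent.Fusion.Abelian
import Cfsg.Prelude.Def_BlockRank

/-!
# Abelian defect groups: the blocks below the maximal pair and the fusion
-/

set_option autoImplicit false
set_option linter.unusedSectionVars false
set_option linter.style.haveILetI false

namespace CfsgLib.Watanabe

open Cfsg CfsgLib.Blocks CfsgLib.CharBasics CfsgLib.PairAlg CfsgLib.NilBlock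

attribute [local instance] CfsgLib.Blocks.residueField CfsgLib.Blocks.residue_charP

universe u

variable {p : ℕ} [Fact p.Prime] {M : Ideal AlgInt} {G : Type u} [Group G] [Fintype G]

noncomputable local instance instFintypeSubgroupWatBelow (K : Subgroup G) : Fintype K := Fintype.ofFinite K

section Push

theorem blockRank_pushBlock {A B : Type*} [Group A] [Group B] (φ : A ≃* B) (f : Set (IrrCharacter A)) :
    blockRank p (pushBlock φ f) = blockRank p f := by
  classical
  let L : (A → ℂ) ≃ₗ[ℂ] (B → ℂ) := LinearEquiv.funCongrLeft ℂ ℂ φ.symm.toEquiv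
  have hpt : ∀ χ : IrrCharacter A,
      L (pRegularPart p (χ : A → ℂ)) = pRegularPart p (pushChar φ χ : B → ℂ) := by
    intro χ
    funext b
    show pRegularPart p (χ : A → ℂ) (φ.symm b) = _
    have ho : orderOf (φ.symm b) = orderOf b := φ.symm.orderOf_eq b
    simp only [pRegularPart, IsPRegular, pushChar_apply, ho]
    by_cases h : p ∣ orderOf b <;> simp [h]
  rw [blockRank, blockRank, ← LinearEquiv.finrank_map_eq L
    (Submodule.span ℂ ((fun χ : IrrCharacter A => pRegularPart p (χ : A → ℂ)) '' f)), Submodule.map_span,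
    pushBlock, Set.image_image, Set.image_image]
  simp only [LinearEquiv.coe_coe]
  rw [Set.image_congr fun χ _ => (hpt χ).symm]

theorem card_pushBlock {A B : Type*} [Group A] [Group B] (φ : A ≃* B) (f : Set (IrrCharacter A)) :
    Nat.card (pushBlock φ f) = Nat.card f := Nat.card_image_of_injective (pushChar_injective φ) f

end Push

variable (hM : IsPModular p M)

/-- The rank of the block of a subgroup with a given idempotent. -/
noncomputable def rk (H : Subgroup G) (a : MonoidAlgebra (Residue hM) G) : ℕ := by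
  classical exact
  if h : ∃ f : Set (IrrCharacter H), IsPBlock M f ∧ bl hM H.subtype f = a then blockRank p h.choose else 0

/-- The number of characters of the block of a subgroup with a given idempotent. -/
noncomputable def nk (H : Subgroup G) (a : MonoidAlgebra (Residue hM) G) : ℕ := by
  classical exact
  if h : ∃ f : Set (IrrCharacter H), IsPBlock M f ∧ bl hM H.subtype f = a then Nat.card h.choose else 0

theorem rk_nk_bl {A : Type*} [Group A] [Fintype A] (ι : A →* G) (hι : Function.Injective ι) {H : Subgroup G}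
    (hr : ι.range = H) {f : Set (IrrCharacter A)} (hf : IsPBlock M f) :
    rk hM H (bl hM ι f) = blockRank p f ∧ nk hM H (bl hM ι f) = Nat.card f := by
  classical
  set φ : A ≃* H := (MonoidHom.ofInjective hι).trans (MulEquiv.subgroupCongr hr) with hφ
  have he : bl hM H.subtype (pushBlock φ f) = bl hM ι f := by
    rw [← cj_bl hM ι hι H.subtype φ 1 (fun a => by rw [one_mul, inv_one, mul_one]; rfl) f, cj_one_apply]
  have hex : ∃ f' : Set (IrrCharacter H), IsPBlock M f' ∧ bl hM H.subtype f' = bl hM ι f :=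
    ⟨_, isPBlock_pushBlock φ hf, he⟩
  have hch : hex.choose = pushBlock φ f :=
    bl_inj hM _ H.subtype_injective hex.choose_spec.1 (isPBlock_pushBlock φ hf) (hex.choose_spec.2.trans he.symm)
  exact ⟨by rw [rk, dif_pos hex, hch, blockRank_pushBlock], by rw [nk, dif_pos hex, hch, card_pushBlock]⟩

variable (P : Subgroup G) (e : Set (IrrCharacter (Subgroup.centralizer (P : Set G))))

/-- The rank of the block below the pair on `Q`. -/
noncomputable def Rq (Q : Subgroup G) : ℕ := by
  classical exact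
  if h : ∃ a, LE' p ⊤ Q a P (bc hM P e) then rk hM (Subgroup.centralizer (Q : Set G)) h.choose else 0

/-- The number of characters of the block below the pair on `Q`. -/
noncomputable def Nq (Q : Subgroup G) : ℕ := by
  classical exact
  if h : ∃ a, LE' p ⊤ Q a P (bc hM P e) then nk hM (Subgroup.centralizer (Q : Set G)) h.choose else 0

/-- The inertial group of the pair. -/
noncomputable abbrev Tst : Subgroup G := stab P (bc hM P e)

/-- The subgroup of the commutators of `P` with a subgroup. -/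
def KT (P T : Subgroup G) : Subgroup G :=
  Subgroup.closure {y | ∃ x ∈ P, ∃ t ∈ T, y = x⁻¹ * (t * x * t⁻¹)}

/-- The size of the orbit of an element. -/
noncomputable def orb (T : Subgroup G) (y : G) : ℕ := Nat.card {z : G // ∃ t ∈ T, t * y * t⁻¹ = z}

theorem orb_pos (T : Subgroup G) (y : G) : 0 < orb T y :=
  @Nat.card_pos _ ⟨⟨y, 1, T.one_mem, by group⟩⟩ _

theorem orb_conj {T : Subgroup G} {t : G} (ht : t ∈ T) (y : G) : orb T (t * y * t⁻¹) = orb T y := by
  refine Nat.card_congr (Equiv.subtypeEquivRight fun z => ⟨?_, ?_⟩)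
  · rintro ⟨s, hs, rfl⟩
    exact ⟨s * t, T.mul_mem hs ht, by group⟩
  · rintro ⟨s, hs, rfl⟩
    exact ⟨s * t⁻¹, T.mul_mem hs (T.inv_mem ht), by group⟩

theorem orb_fix_mul {T : Subgroup G} {u : G} (hu : ∀ t ∈ T, t * u * t⁻¹ = u) (y : G) :
    orb T (u * y) = orb T y := by
  refine Nat.card_congr ((Equiv.mulLeft u).subtypeEquiv fun z => ?_).symm
  simp only [Equiv.coe_mulLeft]
  have key : ∀ t ∈ T, t * (u * y) * t⁻¹ = u * (t * y * t⁻¹) := fun t ht => by
    calc t * (u * y) * t⁻¹ = (t * u * t⁻¹) * (t * y * t⁻¹) := by group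
      _ = _ := by rw [hu t ht]
  constructor
  · rintro ⟨t, ht, rfl⟩
    exact ⟨t, ht, key t ht⟩
  · rintro ⟨t, ht, h⟩
    exact ⟨t, ht, mul_left_cancel ((key t ht).symm.trans h)⟩

variable {P e} {B : Set (IrrCharacter G)} (hmax : IsMaximalBrauerPair p M B P e)
include hmax

theorem exists_below_max {Q : Subgroup G} (hQ : Q ≤ P) : ∃ a, LE' p ⊤ Q a P (bc hM P e) :=
  exists_below (complete (G := G) hM) (isPair_bc hM hmax.1.1) hQ

theorem Rq_Nq_eq {Q : Subgroup G} {a : MonoidAlgebra (Residue hM) G} (h : LE' p ⊤ Q a P (bc hM P e)) :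
    Rq hM P e Q = rk hM (Subgroup.centralizer (Q : Set G)) a ∧
      Nq hM P e Q = nk hM (Subgroup.centralizer (Q : Set G)) a := by
  classical
  have hex : ∃ a, LE' p ⊤ Q a P (bc hM P e) := ⟨a, h⟩
  have hch : hex.choose = a := below_unique (complete (G := G) hM) (isPair_bc hM hmax.1.1) hex.choose_spec h
  exact ⟨by rw [Rq, dif_pos hex, hch], by rw [Nq, dif_pos hex, hch]⟩

theorem Rq_Nq_bot : Rq hM P e ⊥ = blockRank p B ∧ Nq hM P e ⊥ = Nat.card B := by
  obtain ⟨a, ha⟩ := exists_below_max hM hmax (bot_le : (⊥ : Subgroup G) ≤ P)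
  have hcen : Subgroup.centralizer ((⊥ : Subgroup G) : Set G) = ⊤ := by
    refine top_le_iff.1 fun g _ => Subgroup.mem_centralizer_iff.2 fun q hq => ?_
    rw [Subgroup.mem_bot.1 hq, one_mul, mul_one]
  have hof := ofBlk_of_below hM hmax ha
  have h1 : a * bG hM B = a := by
    have h := hof.2.2
    rwa [br_bot] at h
  have hab : a = bG hM B := by
    have hB : IsBlk (⊤ : Subgroup G) (bG hM B) := hof.1
    have hA : IsBlk (⊤ : Subgroup G) a := by
      have h := hof.2.1.blk
      rwa [CH_top, hcen] at h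
    rcases hA.eq_or_mul_eq_zero hB with h | h
    all_goals first
      | exact h
      | exact absurd (h1.symm.trans h) hA.ne
  obtain ⟨h2, h3⟩ := Rq_Nq_eq hM hmax ha
  obtain ⟨h4, h5⟩ := rk_nk_bl hM (MonoidHom.id G) id_injective
    (H := Subgroup.centralizer ((⊥ : Subgroup G) : Set G)) (by rw [range_id, hcen]) hmax.1.2.1
  rw [h2, h3, hab]
  exact ⟨h4, h5⟩

variable (hab : ∀ x ∈ P, ∀ y ∈ P, x * y = y * x)
include hab

theorem le_centralizer_of_le {Q : Subgroup G} (hQ : Q ≤ P) : P ≤ Subgroup.centralizer (Q : Set G) := fun a ha =>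
  Subgroup.mem_centralizer_iff.2 fun q hq => (hab a ha q (hQ hq)).symm

theorem nstep_below {Q : Subgroup G} {a : MonoidAlgebra (Residue hM) G} (h : LE' p ⊤ Q a P (bc hM P e)) :
    NStep p ⊤ Q a P (bc hM P e) :=
  h.nstep (complete (G := G) hM) (isPair_bc hM hmax.1.1)
    ((le_centralizer_of_le hmax hab h.subgroup_le).trans (centralizer_le_normalizer Q))

theorem dmax_below {Q : Subgroup G} {a : MonoidAlgebra (Residue hM) G} (h : LE' p ⊤ Q a P (bc hM P e)) :
    dmax p (Subgroup.centralizer (Q : Set G)) a = Nat.card P := by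
  have hm := isMax_bc hM hmax
  have hs := nstep_below hM hmax hab h
  refine le_antisymm ?_ (le_dmax hmax.1.1.1 (le_centralizer_of_le hmax hab h.subgroup_le) fun h0 =>
    (isPair_bc hM hmax.1.1).blk.ne (by rw [← hs.mul, h0, mul_zero]))
  obtain ⟨y, -, hcard⟩ := exists_full (complete (G := G) hM) hm h (centralizer_le_stab hs.left)
  rw [← hcard]
  exact Subgroup.card_le_of_le inf_le_left

/-- Moves below the pair are made by the inertial group. -/
theorem mv_factor {Q : Subgroup G} {g : G} (h : Mv p P (bc hM P e) g Q) :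
    ∃ t ∈ Tst hM P e, ∀ q ∈ Q, g * q * g⁻¹ = t * q * t⁻¹ := by
  have hc := complete (G := G) hM
  have hPe := isPair_bc hM hmax.1.1
  obtain ⟨hQ, a, ha, ha'⟩ := h
  set Q' := cm g Q with hQ'
  set a' := cj g a with ha''
  have hs := nstep_below hM hmax hab ha'
  have hblk : IsBlk (Subgroup.centralizer (Q' : Set G)) a' := by
    have := hs.left.blk; rwa [CH_top] at this
  have hsg := (nstep_below hM hmax hab ha).cj g
  have hmaxC : ∀ (R : Subgroup G) (r : MonoidAlgebra (Residue hM) G),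
      OfBlk p (Subgroup.centralizer (Q' : Set G)) a' R r → Nat.card R = Nat.card P →
        IsMax p (Subgroup.centralizer (Q' : Set G)) a' R r := by
    refine fun R r hR hcard => ⟨hR, fun S b hS hl => (Subgroup.eq_of_le_of_card_ge hl.subgroup_le ?_).symm⟩
    rw [hcard, ← dmax_below hM hmax hab ha']
    exact le_dmax hS.2.1.isP hS.2.1.le hS.br_ne
  have hPC := le_centralizer_of_le hmax hab ha'.subgroup_le
  have hgC : cm g P ≤ Subgroup.centralizer (Q' : Set G) := by
    rw [hQ', ← cm_centralizer]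
    exact cm_mono (le_centralizer_of_le hmax hab hQ)
  have h1 : OfBlk p (Subgroup.centralizer (Q' : Set G)) a' P (bc hM P e) :=
    ⟨hblk, hPe.to_sub hPC (Subgroup.centralizer_le ha'.subgroup_le), hs.mul⟩
  have h2 : OfBlk p (Subgroup.centralizer (Q' : Set G)) a' (cm g P) (cj g (bc hM P e)) :=
    ⟨hblk, (hPe.cj g).to_sub hgC (Subgroup.centralizer_le hsg.le), hsg.mul⟩
  obtain ⟨c, hcC, e1, e2⟩ := max_conj hc (hmaxC _ _ h1 rfl) (hmaxC _ _ h2 (card_cm g P))
  refine ⟨c⁻¹ * g, ⟨mem_normalizer_of_cm ?_, ?_⟩, fun q hq => ?_⟩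
  · rw [← cm_cm, show cm g P = cm c P from e1, cm_cm, inv_mul_cancel, cm_one]
  · show cj (c⁻¹ * g) _ = _
    rw [← cj_cj, e2, cj_inv_cj]
  · have h3 := Subgroup.mem_centralizer_iff.1 hcC _ (conj_mem_cm.2 hq : g * q * g⁻¹ ∈ Q')
    rw [show c⁻¹ * g * q * (c⁻¹ * g)⁻¹ = c⁻¹ * (g * q * g⁻¹ * c) by group, h3, inv_mul_cancel_left]

omit hab in
theorem mv_of_stab {t : G} (ht : t ∈ Tst hM P e) : Mv p P (bc hM P e) t P :=
  ⟨le_rfl, bc hM P e, LE'.refl, by rw [cm_of_mem_normalizer ht.1, mem_stabOf.1 ht.2]; exact LE'.refl⟩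

variable {F : FusionSystem P} (hF : IsBlockFusionSystemOn p M B P e F)
include hF

/-- The focal subgroup is the commutator subgroup with the inertial group. -/
theorem focal_eq : F.focalSubgroup = KT P (Tst hM P e) := by
  refine le_antisymm ((Subgroup.closure_le _).2 ?_) ((Subgroup.closure_le _).2 ?_)
  · rintro y ⟨Q, φ, x, hφ, rfl⟩
    obtain ⟨g, hg, hmv⟩ := (mem_hom_iff hM hmax hF).1 hφ
    obtain ⟨t, ht, htq⟩ := mv_factor hM hmax hab hmv
    exact Subgroup.subset_closure ⟨x, hmv.1 x.2, t, ht, by rw [hg, htq _ x.2]⟩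
  · rintro y ⟨x, hx, t, ht, rfl⟩
    exact Subgroup.subset_closure ⟨P, conjHom P t, ⟨x, hx⟩,
      (mem_hom_iff hM hmax hF).2 ⟨t, fun u => rfl, mv_of_stab hM hmax ht⟩, rfl⟩

/-- Fixed elements meet the commutators trivially. -/
theorem eq_one_of_fixed_of_mem {u : G} (huP : u ∈ P) (hu : ∀ t ∈ Tst hM P e, t * u * t⁻¹ = u)
    (huK : u ∈ KT P (Tst hM P e)) : u = 1 := by
  classical
  obtain ⟨φ, hr, -, hφ⟩ := exists_autHom hM hmax hF (LE'.refl : LE' p ⊤ P (bc hM P e) P (bc hM P e))
  have hnd := CfsgLib.Fusion.not_dvd_card_autGroup hmax.1.1.1 (isSaturated_block hM hmax hF) hab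
  letI : CommGroup P := { (inferInstance : Group P) with mul_comm := fun a b => Subtype.ext (hab a a.2 b b.2) }
  haveI : Finite (MulAut P) := Finite.of_injective (fun a => (a : P → P)) DFunLike.coe_injective
  haveI : Fintype (F.autGroup P) := Fintype.ofFinite _
  let N : P →* P :=
    { toFun := fun x => ∏ a : F.autGroup P, (a : MulAut P) x
      map_one' := by simp
      map_mul' := fun x y => by simp only [map_mul, Finset.prod_mul_distrib] }
  have hN : ∀ (b : F.autGroup P) (x : P), N ((b : MulAut P) x) = N x := fun b x =>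
    Fintype.prod_equiv (Equiv.mulRight b) _ _ fun a => rfl
  have hKP : KT P (Tst hM P e) ≤ P := by
    refine (Subgroup.closure_le _).2 ?_
    rintro y ⟨x, hx, t, ht, rfl⟩
    exact P.mul_mem (P.inv_mem hx) ((Subgroup.mem_normalizer_iff.1 ht.1 x).1 hx)
  have hker : KT P (Tst hM P e) ≤ N.ker.map P.subtype := by
    refine (Subgroup.closure_le _).2 ?_
    rintro y ⟨x, hx, t, ht, rfl⟩
    refine ⟨(⟨x, hx⟩ : P)⁻¹ * φ ⟨t, ht⟩ ⟨x, hx⟩, ?_, ?_⟩
    · rw [SetLike.mem_coe, MonoidHom.mem_ker, map_mul, hN ⟨φ ⟨t, ht⟩, hr ▸ ⟨_, rfl⟩⟩, map_inv, inv_mul_cancel]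
    · show x⁻¹ * ((φ ⟨t, ht⟩ ⟨x, hx⟩ : P) : G) = _
      rw [hφ]
  obtain ⟨v, hv, hvu⟩ := hker huK
  obtain rfl : v = ⟨u, huP⟩ := Subtype.ext hvu
  have hfix : ∀ a : F.autGroup P, (a : MulAut P) ⟨u, huP⟩ = ⟨u, huP⟩ := fun a => by
    have ha : (a : MulAut P) ∈ φ.range := by rw [hr]; exact a.2
    obtain ⟨t, ht⟩ := ha
    refine Subtype.ext ?_
    rw [← ht, hφ]
    exact hu _ t.2
  have h1 : (⟨u, huP⟩ : P) ^ Nat.card (F.autGroup P) = 1 := by
    have h : N ⟨u, huP⟩ = 1 := hv
    rw [← h]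
    show _ = ∏ a : F.autGroup P, (a : MulAut P) ⟨u, huP⟩
    rw [Finset.prod_congr rfl fun a _ => hfix a, Finset.prod_const, Nat.card_eq_fintype_card, Finset.card_univ]
  obtain ⟨k, hk⟩ := exists_orderOf_eq_of_mem hmax.1.1.1 huP
  have h2 : orderOf u ∣ Nat.card (F.autGroup P) := orderOf_dvd_of_pow_eq_one (congrArg Subtype.val h1)
  exact orderOf_eq_one_iff.1 (Nat.eq_one_of_dvd_coprimes
    (((Fact.out : p.Prime).coprime_iff_not_dvd.2 hnd).pow_left k) (hk ▸ dvd_rfl) h2)

end CfsgLib.Watanabe
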