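import Cfsg.Agent.Blocks.Watanabe.Below
import Cfsg.Agent.Blocks.Star.Action

/-!
# The characters of the abelian defect group modulo the commutators against the subsections
-/

set_option autoImplicit false
set_option linter.unusedSectionVars false
set_option linter.style.haveILetI false

namespace CfsgLib.Watanabe

open Cfsg CfsgLib.Blocks CfsgLib.CharBasics CfsgLib.PairAlg CfsgLib.NilBlock CfsgLib.Star
open scoped ComplexConjugate

attribute [local instance] CfsgLib.Blocks.residueField CfsgLib.Blocks.residue_charP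

universe u

variable {p : ℕ} [Fact p.Prime] {M : Ideal AlgInt} {G : Type u} [Group G] [Fintype G]

noncomputable local instance instFintypeSubgroupWatCount (K : Subgroup G) : Fintype K := Fintype.ofFinite K

variable (hM : IsPModular p M) {B : Set (IrrCharacter G)} {P : Subgroup G}
  {e : Set (IrrCharacter (Subgroup.centralizer (P : Set G)))} (hmax : IsMaximalBrauerPair p M B P e)
  (hab : ∀ x ∈ P, ∀ y ∈ P, x * y = y * x)
include hM hmax

/-- A member of the block does not vanish on a central subsection below the pair. -/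
theorem exists_secVal_ne_zero_of_central {u : G} (hc : u ∈ Subgroup.centralizer (P : Set G))
    {b : Set (IrrCharacter (cen u))} (hb : Bel hM P e u b) {χ : IrrCharacter G} (hχ : χ ∈ B) :
    ∃ y, secVal p u b (χ : G → ℂ) y ≠ 0 := by
  obtain ⟨k, hk⟩ := exists_orderOf_eq_of_mem hmax.1.1.1 hb.1
  have hind := (induced_iff_ofBlk hM ⟨k, hk⟩ hb.2.1 hmax.1.2.1).2 (ofBlk_of_below hM hmax hb.2.2)
  obtain ⟨ξ₀, h₀, hmin₀, he₀⟩ := exists_min_degExp hM hind.1
  obtain ⟨χ₁, hχ₁, hmin₁, he₁⟩ := exists_min_degExp hM hmax.1.2.1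
  have hh1 : blockHeight p B (χ₁ : G → ℂ) = 0 := by rw [blockHeight_eq he₁, Nat.sub_self]
  have hdef := (blockDefect_bel_of_central hM hmax hc hb).trans (blockDefect_eq he₀)
  have hnot := major_not_mem hM ⟨k, hk⟩ hind (K := k) (dvd_of_eq hk) h₀ hmin₀ hdef hχ hχ₁ hh1
  by_contra hcon
  push Not at hcon
  refine hnot ?_
  rw [aeval_contribPoly hM (pow_ne_zero _ (Fact.out : p.Prime).ne_zero) (dvd_of_eq hk) hmin₀,
    Finset.sum_eq_zero fun y _ => by rw [hcon y, zero_mul], mul_zero, zero_div]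
  exact memLocalIdeal_zero hM

/-- A block inducing `B` carries its rank on the members of `B`. -/
theorem sum_KS_diag [Fintype (IrrCharacter G)] [DecidablePred (· ∈ B)] {x : G} (hx : ∃ k : ℕ, orderOf x = p ^ k)
    {b : Set (IrrCharacter (cen x))} (hb : IsPBlock M b) [Decidable (IsInducedBlock M (cen x) b B)] :
    ∑ χ ∈ Finset.univ.filter (· ∈ B), KS p x (coef x b) (χ : G → ℂ) (χ : G → ℂ) =
      if IsInducedBlock M (cen x) b B then (Nat.card (cen x) : ℂ) * blockRank p b else 0 := by
  classical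
  rw [Finset.sum_congr rfl fun χ _ => KS_eq_sum_secVal x b (isClassFunction (isCharacter_of_irr χ.2))
    (isClassFunction (isCharacter_of_irr χ.2))]
  split_ifs with hind
  · rw [Finset.sum_filter_of_ne fun χ _ hne => by_contra fun hχ => hne (Finset.sum_eq_zero fun y _ => by
        rw [secVal_eq_zero_of_notMem' hM hx hind hχ, zero_mul]),
      Finset.sum_comm, ← sum_blockKernel_diag hM hb]
    refine Finset.sum_congr rfl fun y _ => ?_
    split_ifs with hy
    · exact Finset.sum_eq_zero fun χ _ => by rw [secVal, if_pos hy, zero_mul]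
    · exact sum_secVal_mul hM hx hb hy hy
  · exact Finset.sum_eq_zero fun χ hχ => Finset.sum_eq_zero fun y _ => by
      rw [secVal_eq_zero hM hx hb hmax.1.2.1 (Finset.mem_filter.1 hχ).2 hind, zero_mul]

variable {F : FusionSystem P} (hF : IsBlockFusionSystemOn p M B P e F)
include hab hF

/-- Only the trivial linear character fixes a member of the block. -/
theorem sum_classInner_star [Fintype (IrrCharacter G)] [DecidablePred (· ∈ B)] (l : FocChar F) [Decidable (l = 1)] :
    ∑ χ ∈ Finset.univ.filter (· ∈ B), classInner (star hM P e (etaOf F l) χ) (χ : G → ℂ) =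
      if l = 1 then (Nat.card B : ℂ) else 0 := by
  classical
  split_ifs with h
  · subst h
    rw [Finset.sum_congr rfl (g := fun _ => (1 : ℂ)) fun χ hχ => by
      rw [star_etaOf_one F hM hmax hF (Finset.mem_filter.1 hχ).2, classInner_self χ.2],
      Finset.sum_const, nsmul_one, Nat.card_eq_fintype_card (α := B), ← Fintype.card_subtype]
  · refine Finset.sum_eq_zero fun χ hχ => ?_
    have hχB := (Finset.mem_filter.1 hχ).2
    rw [← actIrr_coe F hM hmax hF hχB l]
    refine classInner_ne (actIrr F hM hmax hF hχB l).2 χ.2 fun heq => h (MonoidHom.ext fun q => ?_)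
    obtain ⟨u, rfl⟩ := QuotientGroup.mk_surjective q
    obtain ⟨b, hb⟩ := exists_bel hM hmax u.2
    obtain ⟨y, hy⟩ := exists_secVal_ne_zero_of_central hM hmax
      (le_centralizer_of_le hmax hab le_rfl u.2) hb hχB
    exact linOf_eq_one_of_fixed F hM hmax hF hχB (Subtype.ext heq) hb hy

/-- The elements carrying a subsection below the pair. -/
theorem card_below {x : G} {b : Set (IrrCharacter (cen x))} (hb : IsPBlock M b) {g₀ : G}
    (h₀ : LE' p ⊤ (cm g₀ (Subgroup.zpowers x)) (PairAlg.cj g₀ (bb hM x b)) P (bc hM P e)) :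
    Nat.card {g : G // LE' p ⊤ (cm g (Subgroup.zpowers x)) (PairAlg.cj g (bb hM x b)) P (bc hM P e)} =
      orb (Tst hM P e) (g₀ * x * g₀⁻¹) * Nat.card (cen x) := by
  classical
  have hfix : ∀ c ∈ cen x, PairAlg.cj c (bb hM x b) = bb hM x b := fun c hc =>
    (isBlk_bl hM (cen x).subtype (cen x).subtype_injective hb).cen.2 c (by rw [Subgroup.range_subtype]; exact hc)
  have hzc : ∀ c ∈ cen x, cm c (Subgroup.zpowers x) = Subgroup.zpowers x := fun c hc => by
    rw [cm_zpowers, show c * x * c⁻¹ = x by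
      rw [Subgroup.mem_centralizer_singleton_iff.1 hc, mul_inv_cancel_right]]
  set O := {z : G // ∃ t ∈ Tst hM P e, t * (g₀ * x * g₀⁻¹) * t⁻¹ = z} with hO
  let f : O × cen x → {g : G // LE' p ⊤ (cm g (Subgroup.zpowers x)) (PairAlg.cj g (bb hM x b)) P (bc hM P e)} :=
    fun zc => ⟨zc.1.2.choose * g₀ * (zc.2 : G), by
      have ht := zc.1.2.choose_spec.1
      rw [← cm_cm, ← cj_cj, hzc _ zc.2.2, hfix _ zc.2.2, ← cm_cm, ← cj_cj]
      have h := h₀.cj zc.1.2.choose
      rwa [cm_of_mem_normalizer ht.1, mem_stabOf.1 ht.2] at h⟩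
  have hf : ∀ zc : O × cen x, (f zc : G) * x * (f zc : G)⁻¹ = (zc.1 : G) := fun zc => by
    show zc.1.2.choose * g₀ * (zc.2 : G) * x * (zc.1.2.choose * g₀ * (zc.2 : G))⁻¹ = _
    refine Eq.trans ?_ zc.1.2.choose_spec.2
    have hc : (zc.2 : G) * x = x * zc.2 := Subgroup.mem_centralizer_singleton_iff.1 zc.2.2
    calc _ = zc.1.2.choose * g₀ * ((zc.2 : G) * x) * (zc.2 : G)⁻¹ * g₀⁻¹ * zc.1.2.choose⁻¹ := by group
      _ = _ := by rw [hc]; group
  have hbij : Function.Bijective f := by
    constructor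
    · intro zc zc' h
      have hz : zc.1 = zc'.1 := Subtype.ext (by rw [← hf, ← hf, h])
      obtain ⟨z, c⟩ := zc
      obtain ⟨z', c'⟩ := zc'
      obtain rfl : z = z' := hz
      exact Prod.ext rfl (Subtype.ext (mul_left_cancel (congrArg Subtype.val h)))
    · rintro ⟨g, hg⟩
      have hmv : Mv p P (bc hM P e) (g * g₀⁻¹) (Subgroup.zpowers (g₀ * x * g₀⁻¹)) := by
        refine ⟨?_, PairAlg.cj g₀ (bb hM x b), ?_, ?_⟩
        · rw [← cm_zpowers]; exact h₀.subgroup_le
        · rw [← cm_zpowers]; exact h₀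
        · rw [← cm_zpowers, cm_cm, cj_cj, inv_mul_cancel_right]; exact hg
      obtain ⟨t, ht, htq⟩ := mv_factor hM hmax hab hmv
      have hz : t * (g₀ * x * g₀⁻¹) * t⁻¹ = g * x * g⁻¹ := by
        rw [← htq _ (Subgroup.mem_zpowers _)]; group
      set z : O := ⟨g * x * g⁻¹, t, ht, hz⟩
      have hs := z.2.choose_spec.2
      have hc : (z.2.choose * g₀)⁻¹ * g ∈ cen x := by
        refine Subgroup.mem_centralizer_singleton_iff.2 ?_
        calc (z.2.choose * g₀)⁻¹ * g * x = (z.2.choose * g₀)⁻¹ * (g * x * g⁻¹) * g := by group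
          _ = (z.2.choose * g₀)⁻¹ * (z.2.choose * (g₀ * x * g₀⁻¹) * z.2.choose⁻¹) * g := by rw [hs]
          _ = _ := by group
      exact ⟨(z, ⟨_, hc⟩), Subtype.ext (mul_inv_cancel_left _ g)⟩
  rw [← Nat.card_congr (Equiv.ofBijective f hbij), Nat.card_prod]
  rfl

omit hab hF in
theorem rq_of_below {x g : G} {b : Set (IrrCharacter (cen x))} (hb : IsPBlock M b)
    (h : LE' p ⊤ (cm g (Subgroup.zpowers x)) (PairAlg.cj g (bb hM x b)) P (bc hM P e)) :
    Rq hM P e (Subgroup.zpowers (g * x * g⁻¹)) = blockRank p b := by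
  set ι : cen x →* G := (MulAut.conj g).toMonoidHom.comp (cen x).subtype with hι
  have hinj : Function.Injective ι := (MulAut.conj g).injective.comp (cen x).subtype_injective
  have he : PairAlg.cj g (bb hM x b) = bl hM ι b := by
    rw [bb, cj_bl hM (cen x).subtype (cen x).subtype_injective ι (MulEquiv.refl _) g (fun a => rfl) b, pushBlock_refl]
  have hr : ι.range = Subgroup.centralizer ((cm g (Subgroup.zpowers x) : Subgroup G) : Set G) := by
    rw [← cm_centralizer, centralizer_zpowers_eq, hι, MonoidHom.range_comp, Subgroup.range_subtype]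
    rfl
  rw [← cm_zpowers, (Rq_Nq_eq hM hmax h).1, he, (rk_nk_bl hM ι hinj hr hb).1]

omit hab hF in
theorem exists_unique_below {x g : G} (hg : g * x * g⁻¹ ∈ P) :
    ∃ b, IsPBlock M b ∧ LE' p ⊤ (cm g (Subgroup.zpowers x)) (PairAlg.cj g (bb hM x b)) P (bc hM P e) ∧
      ∀ b', IsPBlock M b' → LE' p ⊤ (cm g (Subgroup.zpowers x)) (PairAlg.cj g (bb hM x b')) P (bc hM P e) → b' = b := by
  obtain ⟨a, ha⟩ := exists_below_max hM hmax (Q := cm g (Subgroup.zpowers x))
    (by rw [cm_zpowers]; exact Subgroup.zpowers_le.2 hg)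
  have hp := ((ha.isPair (isPair_bc hM hmax.1.1)).cj g⁻¹)
  rw [cm_cm, inv_mul_cancel, cm_one] at hp
  obtain ⟨b, hb, he⟩ := exists_bl hM (cen x).subtype (cen x).subtype_injective
    (K := CH ⊤ (Subgroup.zpowers x)) (by rw [Subgroup.range_subtype, CH_top, centralizer_zpowers_eq]) hp.blk
  have hb' : PairAlg.cj g (bb hM x b) = a := by rw [bb, he, cj_cj_inv]
  refine ⟨b, hb, by rw [hb']; exact ha, fun b' hbb hle => bl_inj hM _ (cen x).subtype_injective hbb hb
    (cj_injective g ?_)⟩
  rw [show PairAlg.cj g (bl hM (cen x).subtype b) = a from hb']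
  exact below_unique (complete (G := G) hM) (isPair_bc hM hmax.1.1) hle ha

/-- Twice counting the subsections against a linear character. -/
theorem sum_weight [Fintype (IrrCharacter G)] [DecidablePred (· ∈ B)] (l : FocChar F) [Decidable (l = 1)] :
    ∑ y : P, (linOf F l y : ℂ) * ((Rq hM P e (Subgroup.zpowers (y : G)) : ℂ) / orb (Tst hM P e) (y : G)) =
      if l = 1 then (Nat.card B : ℂ) else 0 := by
  classical
  have hp := (Fact.out : p.Prime)
  rw [← sum_classInner_star hM hmax hab hF l]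
  set η := etaOf F l with hη
  have hst : Stable hM P e η := (admissible_etaOf F hM hmax hF l).stable
  set S := Finset.univ.filter fun x : G => ∃ k : ℕ, orderOf x = p ^ k with hS
  have hG : (Nat.card G : ℂ) ≠ 0 := Nat.cast_ne_zero.2 Nat.card_pos.ne'
  set w : G → ℂ := fun z => η z * ((Rq hM P e (Subgroup.zpowers z) : ℂ) / orb (Tst hM P e) z) with hw
  haveI : ∀ x : G, Fintype (IrrCharacter (cen x)) := fun x => @Fintype.ofFinite _ finite_irrCharacter
  let D : ∀ x : G, Set (IrrCharacter (cen x)) → G → Prop := fun x b g =>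
    LE' p ⊤ (cm g (Subgroup.zpowers x)) (PairAlg.cj g (bb hM x b)) P (bc hM P e)
  have hterm : ∀ x ∈ S, ∀ b ∈ blockFinset M (cen x),
      ev hM P e η x (bb hM x b) * ∑ χ ∈ Finset.univ.filter (· ∈ B), KS p x (coef x b) (χ : G → ℂ) (χ : G → ℂ) =
        ∑ g : G, if D x b g then w (g * x * g⁻¹) else 0 := by
    intro x hx b hb
    have hxp := (Finset.mem_filter.1 hx).2
    have hbB := mem_blockFinset.1 hb
    rw [sum_KS_diag hM hmax hxp hbB]
    by_cases hex : ∃ g, D x b g
    · obtain ⟨g₀, hg₀⟩ := hex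
      have hind := (induced_iff_ofBlk hM hxp hbB hmax.1.2.1).2 (ofBlk_of_le_conj hM hmax hg₀)
      rw [if_pos hind, ev_of_le hM hst hg₀, ← Finset.sum_filter,
        Finset.sum_congr rfl (g := fun _ => w (g₀ * x * g₀⁻¹)) fun g hg => ?_, Finset.sum_const, nsmul_eq_mul]
      · have hc := card_below hM hmax hab hF hbB hg₀
        rw [Nat.card_eq_fintype_card, Fintype.card_subtype] at hc
        rw [hc, hw]
        simp only [rq_of_below hM hmax hbB hg₀]
        have ho : (orb (Tst hM P e) (g₀ * x * g₀⁻¹) : ℂ) ≠ 0 := Nat.cast_ne_zero.2 (orb_pos _ _).ne'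
        push_cast
        field_simp
      · have hgD : D x b g := (Finset.mem_filter.1 hg).2
        have hmv : Mv p P (bc hM P e) (g * g₀⁻¹) (Subgroup.zpowers (g₀ * x * g₀⁻¹)) := by
          refine ⟨?_, PairAlg.cj g₀ (bb hM x b), ?_, ?_⟩
          · rw [← cm_zpowers]; exact hg₀.subgroup_le
          · rw [← cm_zpowers]; exact hg₀
          · rw [← cm_zpowers, cm_cm, cj_cj, inv_mul_cancel_right]; exact hgD
        obtain ⟨t, ht, htq⟩ := mv_factor hM hmax hab hmv
        have hz : t * (g₀ * x * g₀⁻¹) * t⁻¹ = g * x * g⁻¹ := by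
          rw [← htq _ (Subgroup.mem_zpowers _)]; group
        have ho : orb (Tst hM P e) (g * x * g⁻¹) = orb (Tst hM P e) (g₀ * x * g₀⁻¹) := by
          rw [← hz, orb_conj ht]
        simp only [hw, ← ev_of_le hM hst hgD, ← ev_of_le hM hst hg₀, rq_of_below hM hmax hbB hgD,
          rq_of_below hM hmax hbB hg₀, ho]
    · rw [ev_of_not hM hex, zero_mul, Finset.sum_eq_zero fun g _ => if_neg fun h => hex ⟨g, h⟩]
  have hleft : ∑ χ ∈ Finset.univ.filter (· ∈ B), classInner (star hM P e η χ) (χ : G → ℂ) =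
      (Nat.card G : ℂ)⁻¹ * ∑ x ∈ S, ∑ b ∈ blockFinset M (cen x), ev hM P e η x (bb hM x b) *
        ∑ χ ∈ Finset.univ.filter (· ∈ B), KS p x (coef x b) (χ : G → ℂ) (χ : G → ℂ) := by
    simp only [classInner_eq]
    rw [← Finset.mul_sum]
    congr 1
    rw [Finset.sum_congr rfl fun χ _ => sum_by_sections hp _ S (fun x => by simp [hS]), Finset.sum_comm]
    refine Finset.sum_congr rfl fun x hx => ?_
    have hxp := (Finset.mem_filter.1 hx).2
    simp only [Finset.mul_sum]
    conv_rhs => rw [Finset.sum_comm]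
    refine Finset.sum_congr rfl fun χ _ => ?_
    have hc := isClassFunction (isCharacter_of_irr χ.2)
    have e1 : ∀ y : cen x, (if p ∣ orderOf y then 0 else star hM P e η χ (x * y) * conj ((χ : G → ℂ) (x * y))) =
        (∑ b ∈ blockFinset M (cen x), ev hM P e η x (bb hM x b) * secVal p x b (χ : G → ℂ) y) *
          conj (∑ b ∈ blockFinset M (cen x), 1 * secVal p x b (χ : G → ℂ) y) := fun y => by
      simp only [one_mul, ← regular_eq_sum_secVal hM hc y]
      split_ifs with hy
      · simp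
      · rw [star_mul_eq_sum hM P e η χ hxp y hy]
    rw [Finset.sum_congr rfl fun y _ => e1 y, sum_section_product hM _ _ hc hc]
    exact Finset.sum_congr rfl fun b _ => by rw [map_one, mul_one]
  rw [hleft, Finset.sum_congr rfl fun x hx => Finset.sum_congr rfl fun b hb => hterm x hx b hb]
  have hfib : ∀ x ∈ S, ∀ g : G, ∑ b ∈ blockFinset M (cen x), (if D x b g then w (g * x * g⁻¹) else 0) =
      if g * x * g⁻¹ ∈ P then w (g * x * g⁻¹) else 0 := by
    intro x _ g
    by_cases hg : g * x * g⁻¹ ∈ P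
    · obtain ⟨b, hb, hbD, huniq⟩ := exists_unique_below hM hmax hg
      rw [if_pos hg, Finset.sum_eq_single_of_mem b (mem_blockFinset.2 hb)
        (fun b' hb' hne => if_neg fun h => hne (huniq b' (mem_blockFinset.1 hb') h)), if_pos hbD]
    · rw [if_neg hg, Finset.sum_eq_zero fun b _ => if_neg fun h => hg ?_]
      have := h.subgroup_le
      rwa [cm_zpowers, Subgroup.zpowers_le] at this
  have hg : ∀ g : G, ∑ x ∈ S, (if g * x * g⁻¹ ∈ P then w (g * x * g⁻¹) else 0) = ∑ y : P, w y := by
    intro g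
    rw [← Finset.sum_filter]
    refine Finset.sum_bij' (fun x hx => (⟨g * x * g⁻¹, (Finset.mem_filter.1 hx).2⟩ : P))
      (fun y _ => g⁻¹ * (y : G) * g) (fun x _ => Finset.mem_univ _) (fun y _ => ?_)
      (fun x _ => by group) (fun y _ => Subtype.ext (by group)) (fun x _ => rfl)
    refine Finset.mem_filter.2 ⟨Finset.mem_filter.2 ⟨Finset.mem_univ _, ?_⟩, ?_⟩
    · obtain ⟨k, hk⟩ := exists_orderOf_eq_of_mem hmax.1.1.1 y.2
      refine ⟨k, ?_⟩
      rw [← hk]
      have := (MulAut.conj g⁻¹).orderOf_eq (y : G)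
      simpa using this
    · rw [show g * (g⁻¹ * (y : G) * g) * g⁻¹ = y by group]
      exact y.2
  rw [Finset.sum_congr rfl fun x hx => Finset.sum_comm.trans (Finset.sum_congr rfl fun g _ => hfib x hx g),
    Finset.sum_comm, Finset.sum_congr rfl fun g _ => hg g, Finset.sum_const, nsmul_eq_mul, Finset.card_univ,
    ← Nat.card_eq_fintype_card, inv_mul_cancel_left₀ hG]
  refine Finset.sum_congr rfl fun y _ => ?_
  rw [hw]
  simp only [hη, etaOf_of_mem F l y.2]

/-- The weights of each coset add up to the same number. -/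
theorem sum_coset_weight {u : G} (hu : u ∈ P) :
    ((focIn F).index : ℂ) * ∑ y : focIn F,
      (Rq hM P e (Subgroup.zpowers (u * ((y : P) : G))) : ℂ) / orb (Tst hM P e) (u * ((y : P) : G)) =
      (Nat.card B : ℂ) := by
  classical
  haveI : Fintype (IrrCharacter G) := @Fintype.ofFinite _ finite_irrCharacter
  letI : CommGroup (P ⧸ focIn F) :=
    { (inferInstance : Group (P ⧸ focIn F)) with mul_comm := focQuot_comm F }
  have hcard : Nat.card (FocChar F) = (focIn F).index := by
    rw [CommGroup.card_monoidHom_of_hasEnoughRootsOfUnity (P ⧸ focIn F) ℂ, Subgroup.index_eq_card]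
  haveI : Finite (FocChar F) := Nat.finite_of_card_ne_zero (by rw [hcard]; exact Subgroup.index_ne_zero_of_finite)
  haveI : Fintype (FocChar F) := Fintype.ofFinite _
  set u' : P := ⟨u, hu⟩ with hu'
  set w : P → ℂ := fun y => (Rq hM P e (Subgroup.zpowers (y : G)) : ℂ) / orb (Tst hM P e) (y : G) with hw
  have horth : ∀ y : P, ∑ l : FocChar F, ((linOf F l u')⁻¹ : ℂˣ).val * (linOf F l y : ℂ) =
      if u'⁻¹ * y ∈ focIn F then ((focIn F).index : ℂ) else 0 := by
    intro y
    have e1 : ∀ l : FocChar F, ((linOf F l u')⁻¹ : ℂˣ).val * (linOf F l y : ℂ) =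
        (l (QuotientGroup.mk (u'⁻¹ * y)) : ℂ) := fun l => by
      rw [← Units.val_mul, ← map_inv, ← map_mul]; rfl
    rw [Finset.sum_congr rfl fun l _ => e1 l]
    split_ifs with h
    · rw [(QuotientGroup.eq_one_iff _).2 h, ← hcard, Nat.card_eq_fintype_card]
      simp
    · obtain ⟨φ, hφ⟩ := CommGroup.exists_apply_ne_one_of_hasEnoughRootsOfUnity (P ⧸ focIn F) ℂ
        (a := QuotientGroup.mk (u'⁻¹ * y)) (fun h1 => h ((QuotientGroup.eq_one_iff _).1 h1))
      have h2 : ∑ l : FocChar F, ((φ * l) (QuotientGroup.mk (u'⁻¹ * y)) : ℂ) =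
          ∑ l : FocChar F, (l (QuotientGroup.mk (u'⁻¹ * y)) : ℂ) :=
        Fintype.sum_equiv (Equiv.mulLeft φ) _ _ fun l => rfl
      simp only [MonoidHom.mul_apply, Units.val_mul, ← Finset.mul_sum] at h2
      exact by_contra fun h4 => hφ (Units.ext ((mul_eq_right₀ h4).1 h2))
  have hsum : ∑ l : FocChar F, ((linOf F l u')⁻¹ : ℂˣ).val * ∑ y : P, (linOf F l y : ℂ) * w y =
      (Nat.card B : ℂ) := by
    rw [Finset.sum_congr rfl fun l _ => congrArg _ (sum_weight hM hmax hab hF l),
      Finset.sum_eq_single (1 : FocChar F) (fun l _ hl => by rw [if_neg hl, mul_zero]) (by simp), if_pos rfl]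
    simp [linOf]
  rw [← hsum]
  simp only [Finset.mul_sum, ← mul_assoc]
  conv_rhs => rw [Finset.sum_comm]
  simp only [← Finset.sum_mul, horth, ite_mul, zero_mul]
  rw [← Finset.sum_filter]
  refine Finset.sum_bij' (fun y _ => u' * (y : P))
    (fun z hz => (⟨u'⁻¹ * z, (Finset.mem_filter.1 hz).2⟩ : focIn F)) (fun y _ => ?_) (fun _ _ => Finset.mem_univ _)
    (fun y _ => Subtype.ext (inv_mul_cancel_left u' _)) (fun z _ => mul_inv_cancel_left u' z) (fun y _ => ?_)
  · exact Finset.mem_filter.2 ⟨Finset.mem_univ _, by rw [inv_mul_cancel_left]; exact y.2⟩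
  · rfl

end CfsgLib.Watanabe
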