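import Cfsg.Agent.Blocks.Watanabe.Below
import Cfsg.Agent.Blocks.PairAlg.Local

/-!
# Passing to the block of the centralizer of a subgroup of the abelian defect group
-/

set_option autoImplicit false
set_option linter.unusedSectionVars false
set_option linter.style.haveILetI false

namespace CfsgLib.Watanabe

open Cfsg CfsgLib.Blocks CfsgLib.CharBasics CfsgLib.PairAlg CfsgLib.NilBlock

attribute [local instance] CfsgLib.Blocks.residueField CfsgLib.Blocks.residue_charP

universe u

variable {p : ℕ} [Fact p.Prime] {M : Ideal AlgInt} {G : Type u} [Group G] [Fintype G]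

noncomputable local instance instFintypeSubgroupWatTransport {G : Type u} [Group G] [Fintype G] (K : Subgroup G) :
    Fintype K := Fintype.ofFinite K

variable (hM : IsPModular p M) {B : Set (IrrCharacter G)} {P : Subgroup G}
  {e : Set (IrrCharacter (Subgroup.centralizer (P : Set G)))} (hmax : IsMaximalBrauerPair p M B P e)
  (hab : ∀ x ∈ P, ∀ y ∈ P, x * y = y * x) {Q₀ : Subgroup G} (hQ₀ : Q₀ ≤ P)
include hM hmax hab hQ₀

/-- The local block and the maximal pair inside the centralizer. -/
theorem exists_local :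
    ∃ (f : Set (IrrCharacter (Subgroup.centralizer (Q₀ : Set G))))
      (e' : Set (IrrCharacter (Subgroup.centralizer
        ((P.subgroupOf (Subgroup.centralizer (Q₀ : Set G)) : Subgroup (Subgroup.centralizer (Q₀ : Set G))) : Set (Subgroup.centralizer (Q₀ : Set G)))))),
      IsMaximalBrauerPair p M f (P.subgroupOf (Subgroup.centralizer (Q₀ : Set G))) e' ∧
        LE' p ⊤ Q₀ (bc hM Q₀ f) P (bc hM P e) ∧
        bl hM ((Subgroup.centralizer (Q₀ : Set G)).subtype.comp (Subgroup.centralizer
          ((P.subgroupOf (Subgroup.centralizer (Q₀ : Set G)) : Subgroup _) : Set (Subgroup.centralizer (Q₀ : Set G)))).subtype) e' =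
            bc hM P e := by
  set A := Subgroup.centralizer (Q₀ : Set G) with hA
  set P' := P.subgroupOf A with hP'
  have hPe := isPair_bc hM hmax.1.1
  have hPA : P ≤ A := le_centralizer_of_le hmax hab hQ₀
  have hmap : P'.map A.subtype = P := Subgroup.map_subgroupOf_eq_of_le hPA
  have hι := A.subtype_injective
  obtain ⟨a, ha⟩ := exists_below_max hM hmax hQ₀
  obtain ⟨f, hf, rfl⟩ := exists_bc hM (ha.isPair hPe)
  have hs := nstep_below hM hmax hab ha
  have hblk : IsBlk (CH A P) (bc hM P e) := by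
    rw [CH_of_le (Subgroup.centralizer_le hQ₀), ← CH_top P]; exact hPe.blk
  obtain ⟨e', he', he'e⟩ := exists_bl hM (A.subtype.comp (Subgroup.centralizer (P' : Set A)).subtype)
    (injective_comp _ hι _) (K := CH A P)
    (by rw [range_centralizer _ hι, hmap, Subgroup.range_subtype]) hblk
  have hP'p : IsPGroup p P' := hmax.1.1.1.of_equiv (Subgroup.subgroupOfEquivOfLe hPA).symm
  have hblkQ : IsBlk A (bc hM Q₀ f) := by
    have h := hs.left.blk; rwa [CH_top] at h
  have hpair : IsBrauerPairOf p M f P' e' := by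
    refine (isBrauerPairOf_iff_ofBlk hM A.subtype hι hf.2 ⟨hP'p, he'⟩).2 ?_
    rw [he'e, hmap, Subgroup.range_subtype]
    exact ⟨hblkQ, hPe.to_sub hPA (Subgroup.centralizer_le hQ₀), hs.mul⟩
  have hD : IsDefectGroup p M f P' := by
    refine (isDefectGroup_iff hM A.subtype hι hf.2).2 ⟨hP'p, ?_, ?_⟩
    · rw [hmap]
      intro h0
      exact hPe.blk.ne (by rw [← hs.mul]; show bc hM P e * Br P (bl hM A.subtype f) = 0; rw [h0, mul_zero])
    · rw [Subgroup.range_subtype, ← Subgroup.card_map_of_injective hι, hmap]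
      exact (dmax_below hM hmax hab ha).symm
  exact ⟨f, e', Blocks.isMaximal_of_defectGroup hM hD hpair, ha, he'e⟩

variable {f : Set (IrrCharacter (Subgroup.centralizer (Q₀ : Set G)))}
  {e' : Set (IrrCharacter (Subgroup.centralizer
    ((P.subgroupOf (Subgroup.centralizer (Q₀ : Set G)) : Subgroup (Subgroup.centralizer (Q₀ : Set G))) : Set (Subgroup.centralizer (Q₀ : Set G)))))}
  (hmax' : IsMaximalBrauerPair p M f (P.subgroupOf (Subgroup.centralizer (Q₀ : Set G))) e')
  (he' : bl hM ((Subgroup.centralizer (Q₀ : Set G)).subtype.comp (Subgroup.centralizer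
          ((P.subgroupOf (Subgroup.centralizer (Q₀ : Set G)) : Subgroup _) : Set (Subgroup.centralizer (Q₀ : Set G)))).subtype) e' =
            bc hM P e)
include hmax' he'

theorem mem_stab_local : ∀ t : Subgroup.centralizer (Q₀ : Set G),
    t ∈ Tst hM (P.subgroupOf (Subgroup.centralizer (Q₀ : Set G))) e' ↔ (t : G) ∈ Tst hM P e := by
  set A := Subgroup.centralizer (Q₀ : Set G) with hA
  set P' := P.subgroupOf A with hP'
  have hι := A.subtype_injective
  intro t
  have hN : t ∈ Subgroup.normalizer (P' : Set A) ↔ (t : G) ∈ Subgroup.normalizer (P : Set G) := by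
    constructor
    · intro h
      refine mem_normalizer_of_cm (Subgroup.eq_of_le_of_card_ge ?_ (card_cm _ _).ge)
      rintro _ ⟨q, hq, rfl⟩
      exact (Subgroup.mem_normalizer_iff.1 h ⟨q, le_centralizer_of_le hmax hab hQ₀ hq⟩).1 hq
    · intro h
      exact Subgroup.mem_normalizer_iff.2 fun r => Subgroup.mem_normalizer_iff.1 h (r : G)
  constructor
  · intro h
    have hst := (stabilizesBlock_bc_iff hM hmax'.1.1.2 h.1).2 h.2
    have h2 := ((stabilizesBlock_iff_cj hM A.subtype hι hmax'.1.1.2).1 hst).2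
    rw [he'] at h2
    exact ⟨hN.1 h.1, h2⟩
  · intro h
    have ht := hN.2 h.1
    refine ⟨ht, (stabilizesBlock_bc_iff hM hmax'.1.1.2 ht).1 ?_⟩
    refine (stabilizesBlock_iff_cj hM A.subtype hι hmax'.1.1.2).2 ⟨le_normalizer_centralizer P' ht, ?_⟩
    rw [he']
    exact h.2

theorem rq_nq_local : ∀ {Q : Subgroup (Subgroup.centralizer (Q₀ : Set G))},
    Q ≤ P.subgroupOf (Subgroup.centralizer (Q₀ : Set G)) →
    Rq hM (P.subgroupOf (Subgroup.centralizer (Q₀ : Set G))) e' Q =
        Rq hM P e (Q.map (Subgroup.centralizer (Q₀ : Set G)).subtype ⊔ Q₀) ∧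
      Nq hM (P.subgroupOf (Subgroup.centralizer (Q₀ : Set G))) e' Q =
        Nq hM P e (Q.map (Subgroup.centralizer (Q₀ : Set G)).subtype ⊔ Q₀) := by
  set A := Subgroup.centralizer (Q₀ : Set G) with hA
  set P' := P.subgroupOf A with hP'
  have hι := A.subtype_injective
  have hPA : P ≤ A := le_centralizer_of_le hmax hab hQ₀
  have hmap : P'.map A.subtype = P := Subgroup.map_subgroupOf_eq_of_le hPA
  have hab' : ∀ x ∈ P', ∀ y ∈ P', x * y = y * x := fun x hx y hy => Subtype.ext (hab x hx y hy)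
  intro Q hQ
  obtain ⟨b, hb⟩ := exists_below_max hM hmax' hQ
  obtain ⟨g, hg, rfl⟩ := exists_bc hM (hb.isPair (isPair_bc hM hmax'.1.1))
  have hn := (nstep_iff hM A.subtype hι hg hmax'.1.1).1
    ((nstep_bc_iff hM hg hmax'.1.1).2 (nstep_below hM hmax' hab' hb))
  rw [he', hmap, Subgroup.range_subtype] at hn
  set Qm := Q.map A.subtype with hQm
  set β := bl hM (A.subtype.comp (Subgroup.centralizer (Q : Set A)).subtype) g with hβ
  have hSP : Qm ⊔ Q₀ ≤ P := sup_le hn.le hQ₀
  have hcen : CH A Qm = Subgroup.centralizer ((Qm ⊔ Q₀ : Subgroup G) : Set G) := by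
    refine le_antisymm (fun z hz => Subgroup.mem_centralizer_iff.2 fun q hq => ?_)
      (le_inf (Subgroup.centralizer_le (SetLike.coe_subset_coe.2 le_sup_right))
        (Subgroup.centralizer_le (SetLike.coe_subset_coe.2 le_sup_left)))
    have hsup : Qm ⊔ Q₀ ≤ Subgroup.centralizer ({z} : Set G) := sup_le
      (fun u hu => Subgroup.mem_centralizer_singleton_iff.2 (Subgroup.mem_centralizer_iff.1 hz.2 u hu))
      (fun u hu => Subgroup.mem_centralizer_singleton_iff.2 (Subgroup.mem_centralizer_iff.1 hz.1 u hu))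
    exact Subgroup.mem_centralizer_singleton_iff.1 (hsup hq)
  have hstep : NStep p ⊤ (Qm ⊔ Q₀) β P (bc hM P e) :=
    ⟨⟨hmax.1.1.1.to_le hSP, le_top, by rw [CH_top, ← hcen]; exact hn.left.blk⟩, isPair_bc hM hmax.1.1, hSP,
      (le_centralizer_of_le hmax hab hSP).trans (centralizer_le_normalizer _), hn.fix, hn.mul⟩
  obtain ⟨h1, h2⟩ := Rq_Nq_eq hM hmax hstep.le'
  obtain ⟨h3, h4⟩ := rk_nk_bl hM (A.subtype.comp (Subgroup.centralizer (Q : Set A)).subtype) (injective_comp _ hι _)
    (H := Subgroup.centralizer ((Qm ⊔ Q₀ : Subgroup G) : Set G))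
    (by rw [range_centralizer _ hι, Subgroup.range_subtype, hcen]) hg.2
  obtain ⟨h5, h6⟩ := Rq_Nq_eq hM hmax' hb
  obtain ⟨h7, h8⟩ := rk_nk_bl hM (Subgroup.centralizer (Q : Set A)).subtype (Subgroup.subtype_injective _)
    (Subgroup.range_subtype _) hg.2
  exact ⟨(h5.trans h7).trans (h1.trans h3).symm, (h6.trans h8).trans (h2.trans h4).symm⟩

end CfsgLib.Watanabe
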