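import Cfsg.Agent.Blocks.Watanabe.Count
import Cfsg.Agent.Blocks.Watanabe.Transport

/-!
# An element fixed by the inertial group keeps the number of characters and the rank
-/

set_option autoImplicit false
set_option linter.unusedSectionVars false
set_option linter.style.haveILetI false

namespace CfsgLib.Watanabe

open Cfsg CfsgLib.Blocks CfsgLib.CharBasics CfsgLib.PairAlg CfsgLib.NilBlock CfsgLib.Star

attribute [local instance] CfsgLib.Blocks.residueField CfsgLib.Blocks.residue_charP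

universe u

variable {p : ℕ} [Fact p.Prime] {M : Ideal AlgInt}

noncomputable local instance instFintypeSubgroupWatMain {G : Type u} [Group G] [Fintype G] (K : Subgroup G) :
    Fintype K := Fintype.ofFinite K

variable (hM : IsPModular p M)

/-- In a group the rank of the block below at a fixed element is that of the block. -/
def RankFixed (G : Type u) [Group G] [Fintype G] : Prop :=
  ∀ (B : Set (IrrCharacter G)) (P : Subgroup G) (e : Set (IrrCharacter (Subgroup.centralizer (P : Set G)))),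
    IsMaximalBrauerPair p M B P e → (∀ x ∈ P, ∀ y ∈ P, x * y = y * x) → ∀ u ∈ P,
      (∀ t ∈ Tst hM P e, t * u * t⁻¹ = u) → Rq hM P e (Subgroup.zpowers u) = Rq hM P e ⊥

variable {G : Type u} [Group G] [Fintype G] {B : Set (IrrCharacter G)} {P : Subgroup G}
  {e : Set (IrrCharacter (Subgroup.centralizer (P : Set G)))} (hmax : IsMaximalBrauerPair p M B P e)
  (hab : ∀ x ∈ P, ∀ y ∈ P, x * y = y * x)
include hM hmax hab

theorem rq_sup_eq {x w : G} (hx : x ∈ P) (hw : w ∈ P)
    (hfix : ∀ t ∈ Tst hM P e, t * x * t⁻¹ = x → t * w * t⁻¹ = w)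
    (hW : RankFixed (p := p) hM (Subgroup.centralizer (Subgroup.zpowers x : Set G))) :
    Rq hM P e (Subgroup.zpowers x ⊔ Subgroup.zpowers w) = Rq hM P e (Subgroup.zpowers x) := by
  have hQ₀ : Subgroup.zpowers x ≤ P := Subgroup.zpowers_le.2 hx
  set A := Subgroup.centralizer (Subgroup.zpowers x : Set G)
  obtain ⟨f, e', hmax', -, he'⟩ := exists_local hM hmax hab hQ₀
  have hwA : w ∈ A := le_centralizer_of_le hmax hab hQ₀ hw
  have hab' : ∀ a ∈ P.subgroupOf A, ∀ b ∈ P.subgroupOf A, a * b = b * a := fun a ha b hb =>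
    Subtype.ext (hab a ha b hb)
  have h := hW f _ e' hmax' hab' ⟨w, hwA⟩ hw fun t ht => by
    have htT := (mem_stab_local hM hmax hab hQ₀ hmax' he' t).1 ht
    refine Subtype.ext (hfix t htT ?_)
    rw [← Subgroup.mem_centralizer_iff.1 t.2 x (Subgroup.mem_zpowers x), mul_inv_cancel_right]
  rw [(rq_nq_local hM hmax hab hQ₀ hmax' he' (Q := Subgroup.zpowers ⟨w, hwA⟩)
      (Subgroup.zpowers_le.2 hw)).1,
    (rq_nq_local hM hmax hab hQ₀ hmax' he' (Q := ⊥) bot_le).1, Subgroup.map_bot, bot_sup_eq,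
    MonoidHom.map_zpowers] at h
  rw [sup_comm]
  exact h

omit hmax hab in
theorem card_cen_lt {z : G} (hz : z ∉ Subgroup.center G) :
    Nat.card (Subgroup.centralizer (Subgroup.zpowers z : Set G)) < Nat.card G := by
  refine lt_of_le_of_ne (Subgroup.card_le_card_group _) fun h => hz (Subgroup.mem_center_iff.2 fun g => ?_)
  have hg : g ∈ Subgroup.centralizer (Subgroup.zpowers z : Set G) := by
    rw [Subgroup.eq_top_of_card_eq _ h]; exact Subgroup.mem_top g
  exact (Subgroup.mem_centralizer_iff.1 hg z (Subgroup.mem_zpowers z)).symm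

omit hmax hab in
theorem fixed_of_center {z : G} (hz : z ∈ Subgroup.center G) (t : G) : t * z * t⁻¹ = z := by
  rw [Subgroup.mem_center_iff.1 hz t, mul_inv_cancel_right]

theorem rank_fixed_step (ih : ∀ (H : Subgroup G), Nat.card H < Nat.card G → RankFixed (p := p) hM H) {u : G}
    (hu : u ∈ P) (hfix : ∀ t ∈ Tst hM P e, t * u * t⁻¹ = u) :
    Rq hM P e (Subgroup.zpowers u) = Rq hM P e ⊥ := by
  classical
  obtain ⟨F, hF⟩ := exists_blockFusionSystem hM hmax
  have hK := focal_eq hM hmax hab hF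
  have h1 := sum_coset_weight hM hmax hab hF hu
  have h2 := sum_coset_weight hM hmax hab hF P.one_mem
  have hidx : ((focIn F).index : ℂ) ≠ 0 := Nat.cast_ne_zero.2 Subgroup.index_ne_zero_of_finite
  have h3 := mul_left_cancel₀ hidx (h1.trans h2.symm)
  set f : focIn F → ℂ := fun y => (Rq hM P e (Subgroup.zpowers (u * ((y : P) : G))) : ℂ) /
    orb (Tst hM P e) ((y : P) : G) with hf
  set g : focIn F → ℂ := fun y => (Rq hM P e (Subgroup.zpowers ((y : P) : G)) : ℂ) /
    orb (Tst hM P e) ((y : P) : G) with hg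
  have e1 : ∑ y, f y = ∑ y, g y := by
    simp only [orb_fix_mul hfix, one_mul] at h3
    exact h3
  have e2 : ∀ y : focIn F, y ≠ 1 → f y = g y := by
    intro y hy
    have hy1 : ((y : P) : G) ≠ 1 := fun h => hy (Subtype.ext (Subtype.ext h))
    have hyP : ((y : P) : G) ∈ P := (y : P).2
    have hnfix : ¬ ∀ t ∈ Tst hM P e, t * ((y : P) : G) * t⁻¹ = ((y : P) : G) := fun h =>
      hy1 (eq_one_of_fixed_of_mem hM hmax hab hF hyP h (by rw [← hK]; exact y.2))
    have hconv : ∀ t ∈ Tst hM P e, t * (u * ((y : P) : G)) * t⁻¹ = u * ((y : P) : G) →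
        t * ((y : P) : G) * t⁻¹ = ((y : P) : G) := fun t ht h => by
      refine mul_left_cancel (a := u) ?_
      calc u * (t * ((y : P) : G) * t⁻¹) = t * u * t⁻¹ * (t * ((y : P) : G) * t⁻¹) := by rw [hfix t ht]
        _ = t * (u * ((y : P) : G)) * t⁻¹ := by group
        _ = _ := h
    have a1 := rq_sup_eq hM hmax hab hyP hu (fun t ht _ => hfix t ht)
      (ih _ (card_cen_lt hM fun hc => hnfix fun t _ => fixed_of_center hM hc t))
    have a2 := rq_sup_eq hM hmax hab (P.mul_mem hu hyP) hyP hconv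
      (ih _ (card_cen_lt hM fun hc => hnfix fun t ht => hconv t ht (fixed_of_center hM hc t)))
    have hsup : Subgroup.zpowers (u * ((y : P) : G)) ⊔ Subgroup.zpowers ((y : P) : G) =
        Subgroup.zpowers ((y : P) : G) ⊔ Subgroup.zpowers u := by
      refine le_antisymm (sup_le (Subgroup.zpowers_le.2 (Subgroup.mul_mem _
        (Subgroup.mem_sup_right (Subgroup.mem_zpowers u)) (Subgroup.mem_sup_left (Subgroup.mem_zpowers _)))) le_sup_left)
        (sup_le le_sup_right (Subgroup.zpowers_le.2 ?_))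
      have := Subgroup.mul_mem (Subgroup.zpowers (u * ((y : P) : G)) ⊔ Subgroup.zpowers ((y : P) : G))
        (Subgroup.mem_sup_left (Subgroup.mem_zpowers _)) (Subgroup.inv_mem _ (Subgroup.mem_sup_right (Subgroup.mem_zpowers _)))
      rwa [mul_inv_cancel_right] at this
    rw [hsup] at a2
    simp only [hf, hg, ← a2, a1]
  have e3 : f 1 = g 1 := by
    have h := sub_eq_zero.2 e1
    rw [← Finset.sum_sub_distrib, Finset.sum_eq_single 1 (fun y _ hy => sub_eq_zero.2 (e2 y hy)) (by simp)] at h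
    exact sub_eq_zero.1 h
  simp only [hf, hg, OneMemClass.coe_one, mul_one, Subgroup.zpowers_one_eq_bot] at e3
  rw [div_left_inj' (Nat.cast_ne_zero.2 (orb_pos _ _).ne')] at e3
  exact_mod_cast e3

omit hmax hab in
theorem rankFixed_all : ∀ (n : ℕ) (G : Type u) [Group G] [Fintype G], Nat.card G = n → RankFixed (p := p) hM G := by
  intro n
  induction n using Nat.strong_induction_on with
  | _ n ih =>
    intro G _ _ hn B P e hmax hab u hu hfix
    exact rank_fixed_step hM hmax hab (fun H hH => ih _ (hn ▸ hH) H rfl) hu hfix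

/-- The two counts. -/
theorem counts_fixed {u : G} (hu : u ∈ P) (hfix : ∀ t ∈ Tst hM P e, t * u * t⁻¹ = u) :
    Rq hM P e (Subgroup.zpowers u) = blockRank p B ∧ Nq hM P e (Subgroup.zpowers u) = Nat.card B := by
  classical
  refine ⟨(rankFixed_all hM _ G rfl B P e hmax hab u hu hfix).trans (Rq_Nq_bot hM hmax).1, ?_⟩
  have hQ₀ : Subgroup.zpowers u ≤ P := Subgroup.zpowers_le.2 hu
  set A := Subgroup.centralizer (Subgroup.zpowers u : Set G)
  set P' := P.subgroupOf A
  obtain ⟨f, e', hmax', -, he'⟩ := exists_local hM hmax hab hQ₀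
  have hab' : ∀ a ∈ P', ∀ b ∈ P', a * b = b * a := fun a ha b hb => Subtype.ext (hab a ha b hb)
  have hPA : P ≤ A := le_centralizer_of_le hmax hab hQ₀
  have hTA : Tst hM P e ≤ A := fun t ht => by
    refine Subgroup.mem_centralizer_iff.2 fun q hq => ?_
    have hle : Subgroup.zpowers u ≤ Subgroup.centralizer ({t} : Set G) := Subgroup.zpowers_le.2
      (Subgroup.mem_centralizer_singleton_iff.2 (by
        conv_lhs => rw [← hfix t ht]
        group))
    exact Subgroup.mem_centralizer_singleton_iff.1 (hle hq)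
  have hT : ∀ t : A, t ∈ Tst hM P' e' ↔ (t : G) ∈ Tst hM P e := fun t => mem_stab_local hM hmax hab hQ₀ hmax' he' t
  obtain ⟨F, hF⟩ := exists_blockFusionSystem hM hmax
  obtain ⟨F', hF'⟩ := exists_blockFusionSystem hM hmax'
  have hfoc : ∀ y : A, y ∈ F'.focalSubgroup ↔ (y : G) ∈ F.focalSubgroup := by
    have hmap : F'.focalSubgroup.map A.subtype = F.focalSubgroup := by
      rw [focal_eq hM hmax' hab' hF', focal_eq hM hmax hab hF, KT, KT, MonoidHom.map_closure]
      congr 1
      ext z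
      constructor
      · rintro ⟨_, ⟨x, hx, t, ht, rfl⟩, rfl⟩
        exact ⟨x, hx, t, (hT t).1 ht, rfl⟩
      · rintro ⟨x, hx, t, ht, rfl⟩
        exact ⟨_, ⟨⟨x, hPA hx⟩, hx, ⟨t, hTA ht⟩, (hT _).2 ht, rfl⟩, rfl⟩
    intro y
    rw [← hmap]
    exact (Subgroup.mem_map_iff_mem A.subtype_injective).symm
  let φ : focIn F' → focIn F := fun y => ⟨⟨(((y : P') : A) : G), (y : P').2⟩, (hfoc _).1 y.2⟩
  have hφ : Function.Bijective φ := by
    refine ⟨fun a b h => ?_, fun y => ⟨⟨⟨⟨((y : P) : G), hPA (y : P).2⟩, (y : P).2⟩, (hfoc _).2 y.2⟩, rfl⟩⟩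
    exact Subtype.ext (Subtype.ext (Subtype.ext (congrArg (fun z : focIn F => ((z : P) : G)) h)))
  have hidx : (focIn F').index = (focIn F).index := by
    have h1 := (focIn F').index_mul_card
    have h2 := (focIn F).index_mul_card
    rw [Nat.card_congr (Subgroup.subgroupOfEquivOfLe hPA).toEquiv, ← h2,
      Nat.card_congr (Equiv.ofBijective φ hφ)] at h1
    exact Nat.eq_of_mul_eq_mul_right Nat.card_pos h1
  have horb : ∀ y : A, orb (Tst hM P' e') y = orb (Tst hM P e) (y : G) := by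
    intro y
    let ψ : {z : A // ∃ t ∈ Tst hM P' e', t * y * t⁻¹ = z} →
        {z : G // ∃ t ∈ Tst hM P e, t * (y : G) * t⁻¹ = z} := fun z =>
      ⟨(z.1 : G), by obtain ⟨t, ht, h⟩ := z.2; exact ⟨t, (hT t).1 ht, congrArg Subtype.val h⟩⟩
    refine Nat.card_congr (Equiv.ofBijective ψ ⟨fun a b h => Subtype.ext (Subtype.ext (Subtype.mk.inj h :)), ?_⟩)
    rintro ⟨z, t, ht, rfl⟩
    exact ⟨⟨⟨t, hTA ht⟩ * y * ⟨t, hTA ht⟩⁻¹, ⟨t, hTA ht⟩, (hT _).2 ht, rfl⟩, rfl⟩
  have hA := sum_coset_weight hM hmax' hab' hF' P'.one_mem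
  have hG := sum_coset_weight hM hmax hab hF P.one_mem
  have hterm : ∀ y : focIn F', (Rq hM P' e' (Subgroup.zpowers (1 * ((y : P') : A))) : ℂ) /
      orb (Tst hM P' e') (1 * ((y : P') : A)) =
      (Rq hM P e (Subgroup.zpowers (1 * ((φ y : P) : G))) : ℂ) / orb (Tst hM P e) (1 * ((φ y : P) : G)) := by
    intro y
    rw [one_mul, one_mul, horb, (rq_nq_local hM hmax hab hQ₀ hmax' he' (Q := Subgroup.zpowers ((y : P') : A))
      (Subgroup.zpowers_le.2 (y : P').2)).1, MonoidHom.map_zpowers]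
    show (Rq hM P e (Subgroup.zpowers (((y : P') : A) : G) ⊔ Subgroup.zpowers u) : ℂ) / _ = _
    rw [rq_sup_eq hM hmax hab (x := (((y : P') : A) : G)) (y : P').2 hu (fun t ht _ => hfix t ht)
      (rankFixed_all hM _ _ rfl)]
  have hsum := Fintype.sum_bijective φ hφ (fun y : focIn F' =>
    (Rq hM P' e' (Subgroup.zpowers (1 * ((y : P') : A))) : ℂ) / orb (Tst hM P' e') (1 * ((y : P') : A)))
    (fun y : focIn F => (Rq hM P e (Subgroup.zpowers (1 * ((y : P) : G))) : ℂ) / orb (Tst hM P e) (1 * ((y : P) : G)))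
    hterm
  erw [hsum, hidx, hG] at hA
  have hN := (rq_nq_local hM hmax hab hQ₀ hmax' he' (Q := ⊥) bot_le).2
  rw [(Rq_Nq_bot hM hmax').2, Subgroup.map_bot, bot_sup_eq] at hN
  exact hN.symm.trans (Nat.cast_injective (R := ℂ) hA.symm)

end CfsgLib.Watanabe
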